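import Cfsg.Agent.H567.OddOver
import Cfsg.Agent.Involutions.IndexFive
import Cfsg.Agent.GH.C2SevenTop
import Cfsg.Agent.S0044

/-!
# Subgroups of index prime to 3 with trivial 3-core of the simple group of order 504 (helper567)
-/

set_option autoImplicit false

namespace Cfsg.Agent.H567.LTwoEight

open Subgroup Cfsg Cfsg.Agent.H567.OddOver
open scoped Nat

universe u

/-- a power of `p` dividing `|M|` divides `|Aut N|` if `C_M(N)` has order prime to `p` -/
theorem pow_dvd_aut {M : Type*} [Group M] [Finite M] {p : ℕ} (hp : p.Prime) {N : Subgroup M} [N.Normal]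
    (h : ¬ p ∣ Nat.card ↥(centralizer (N : Set M))) {a : ℕ} (ha : p ^ a ∣ Nat.card M) :
    p ^ a ∣ Nat.card (MulAut ↥N) := by
  have hker : (MulAut.conjNormal : M →* MulAut ↥N).ker ≤ centralizer (N : Set M) := by
    intro m hm
    rw [mem_centralizer_iff]
    intro n hn
    have h1 : MulAut.conjNormal m (⟨n, hn⟩ : ↥N) = ⟨n, hn⟩ := by
      rw [MonoidHom.mem_ker] at hm
      rw [hm]; rfl
    have h2 : m * n * m⁻¹ = n := congrArg Subtype.val h1
    rw [mul_inv_eq_iff_eq_mul] at h2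
    exact h2.symm
  have hk : ¬ p ∣ Nat.card ↥(MulAut.conjNormal : M →* MulAut ↥N).ker := fun h1 =>
    h (h1.trans (Subgroup.card_dvd_of_le hker))
  have h1 : Nat.card M = Nat.card ↥(MulAut.conjNormal : M →* MulAut ↥N).ker *
      Nat.card ↥(MulAut.conjNormal : M →* MulAut ↥N).range := by
    rw [← Subgroup.index_ker, Subgroup.card_mul_index]
  rw [h1] at ha
  have h2 : (p ^ a).Coprime (Nat.card ↥(MulAut.conjNormal : M →* MulAut ↥N).ker) :=
    Nat.Coprime.pow_left _ ((Nat.Prime.coprime_iff_not_dvd hp).2 hk)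
  exact (h2.dvd_of_dvd_mul_left ha).trans (Subgroup.card_subgroup_dvd_card _)

/-- a `{3, r}`-group with trivial 3-core whose 3-part is `9` -/
theorem nine_dvd {M : Type u} [Group M] [Finite M] {r k : ℕ} (hr : r.Prime) (hr3 : r ≠ 3)
    (hd : Nat.card M ∣ 3 ^ 2 * r ^ k) (h9 : 9 ∣ Nat.card M) (hM : pCore 3 M = ⊥) : ∃ d ≤ k, 9 ∣ glN r d := by
  have hs : Group.IsSolvable M := GH.C2SevenTop.solvable_of_dvd Nat.prime_three hr hd
  have hfr : Fact r.Prime := ⟨hr⟩
  have hF : fittingSubgroup M = pCore r M := by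
    rw [Lib.Cores.fittingSubgroup_eq_iSup_pCore]
    refine le_antisymm (iSup_le fun p => ?_) (le_iSup (fun p : Nat.Primes => pCore (p : ℕ) M) ⟨r, hr⟩)
    by_cases hp3 : (p : ℕ) = 3
    · rw [hp3, hM]; exact bot_le
    by_cases hpr : (p : ℕ) = r
    · rw [hpr]
    have hfp : Fact (p : ℕ).Prime := ⟨p.2⟩
    have h1 : pCore (p : ℕ) M = ⊥ := by
      obtain ⟨n, hn⟩ := (IsPGroup.iff_card).1 (Lib.Cores.pCore_isPGroup (G := M) (p : ℕ))
      rcases Nat.eq_zero_or_pos n with rfl | hn0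
      · rw [← Subgroup.card_eq_one, hn, pow_zero]
      · exfalso
        have h2 : (p : ℕ) ∣ 3 ^ 2 * r ^ k :=
          (dvd_pow_self _ hn0.ne').trans ((hn ▸ Subgroup.card_subgroup_dvd_card (pCore (p : ℕ) M)).trans hd)
        rcases (Nat.Prime.dvd_mul p.2).1 h2 with h3 | h3
        · exact hp3 ((Nat.prime_dvd_prime_iff_eq p.2 Nat.prime_three).1 (p.2.dvd_of_dvd_pow h3))
        · exact hpr ((Nat.prime_dvd_prime_iff_eq p.2 hr).1 (p.2.dvd_of_dvd_pow h3))
    rw [h1]; exact bot_le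
  have hC : centralizer (pCore r M : Set M) ≤ pCore r M := by
    have := S0044.result (G := M)
    rwa [hF] at this
  obtain ⟨n, hn⟩ := (IsPGroup.iff_card).1 (Lib.Cores.pCore_isPGroup (G := M) r)
  have hnk : n ≤ k := by
    have h1 : r ^ n ∣ 3 ^ 2 * r ^ k := (hn ▸ Subgroup.card_subgroup_dvd_card (pCore r M)).trans hd
    have h2 : (r ^ n).Coprime (3 ^ 2) := Nat.Coprime.pow _ _ ((Nat.coprime_primes hr Nat.prime_three).2 hr3)
    exact (Nat.pow_dvd_pow_iff_le_right hr.one_lt).1 (h2.dvd_of_dvd_mul_left h1)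
  have h3 : ¬ 3 ∣ Nat.card ↥(centralizer (pCore r M : Set M)) := by
    intro h
    have h4 : 3 ∣ r ^ n := h.trans (hn ▸ Subgroup.card_dvd_of_le hC)
    exact hr3 ((Nat.prime_dvd_prime_iff_eq Nat.prime_three hr).1 (Nat.prime_three.dvd_of_dvd_pow h4)).symm
  have h4 := pow_dvd_aut (N := pCore r M) Nat.prime_three h3 (a := 2) (by simpa using h9)
  obtain ⟨d, m, hdn, -, h5⟩ := BpSpor.card_mulAut_dvd (Lib.Cores.pCore_isPGroup (G := M) r) hn
  refine ⟨d, hdn.trans hnk, ?_⟩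
  have h6 : 3 ^ 2 ∣ r ^ m * glN r d := h4.trans h5
  have h7 : (3 ^ 2).Coprime (r ^ m) := Nat.Coprime.pow _ _ ((Nat.coprime_primes Nat.prime_three hr).2 hr3.symm)
  simpa using h7.dvd_of_dvd_mul_left h6

theorem main {G : Type u} [Group G] [Finite G] [IsSimpleGroup G] (hc : Nat.card G = 504) (M : Subgroup G)
    (hM : pCore 3 ↥M = ⊥) (hidx : ¬ 3 ∣ M.index) : M = ⊤ := by
  by_contra hne
  have h1 : Nat.card ↥M * M.index = 504 := by rw [Subgroup.card_mul_index, hc]
  have h2 := Involutions.IndexFive.card_dvd_factorial_index M hne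
  rw [hc] at h2
  have h3 : M.index ∣ 56 := by
    have h4 : M.index ∣ 9 * 56 := Dvd.intro_left _ h1
    exact Nat.Coprime.dvd_of_dvd_mul_left
      (Nat.Coprime.pow_right 2 (Nat.coprime_comm.1 ((Nat.Prime.coprime_iff_not_dvd Nat.prime_three).2 hidx))) h4
  have h4 : 7 ≤ M.index := by
    by_contra h
    have h5 : M.index ! ∣ 6 ! := Nat.factorial_dvd_factorial (by omega)
    exact absurd (h2.trans h5) (by decide)
  have h5 : M.index ∈ Nat.divisors 56 := Nat.mem_divisors.2 ⟨h3, by norm_num⟩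
  have h6 : M.index = 7 ∨ M.index = 8 ∨ M.index = 14 ∨ M.index = 28 ∨ M.index = 56 := by
    have : ∀ n ∈ Nat.divisors 56, 7 ≤ n → n = 7 ∨ n = 8 ∨ n = 14 ∨ n = 28 ∨ n = 56 := by decide +kernel
    exact this _ h5 h4
  have h7 : Nat.card ↥M = 72 ∨ Nat.card ↥M = 63 ∨ Nat.card ↥M = 36 ∨ Nat.card ↥M = 18 ∨ Nat.card ↥M = 9 := by
    rcases h6 with h | h | h | h | h <;> rw [h] at h1 <;> omega
  have h9 : 9 ∣ Nat.card ↥M := by rcases h7 with h | h | h | h | h <;> rw [h] <;> norm_num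
  have h8 : Nat.card ↥M ∣ 3 ^ 2 * 2 ^ 3 ∨ Nat.card ↥M ∣ 3 ^ 2 * 7 ^ 1 := by
    rcases h7 with h | h | h | h | h <;> rw [h] <;> norm_num
  rcases h8 with h | h
  · obtain ⟨d, hd, h10⟩ := nine_dvd Nat.prime_two (by norm_num) h h9 hM
    interval_cases d <;> revert h10 <;> decide +kernel
  · obtain ⟨d, hd, h10⟩ := nine_dvd (by norm_num : Nat.Prime 7) (by norm_num) h h9 hM
    interval_cases d <;> revert h10 <;> decide +kernel

end Cfsg.Agent.H567.LTwoEight
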