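import Cfsg.Agent.H567.OddOver
import Cfsg.Agent.OrdDiv.Main
import Cfsg.Agent.Involutions.IndexFive
import Cfsg.Agent.S0813
import Cfsg.Agent.S0815
import Cfsg.Agent.S0252
import Cfsg.Agent.S0254
import Cfsg.Agent.S0265
import Cfsg.Agent.S0242

/-!
# Subgroups of odd index with trivial 2-core of `A₆`, `U₃(3)` and the Tits group (helper567)
-/

set_option autoImplicit false
set_option linter.unusedSectionVars false

namespace Cfsg.Agent.H567.OddOver

open Subgroup Cfsg Cfsg.Agent.OrdDiv
open Cfsg.Agent.H388.Rad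
open scoped Nat

universe u

variable {G : Type u} [Group G]

theorem glN_zero (r : ℕ) : glN r 0 = 1 := by simp [glN]

/-- primes dividing a number given by its factorisation -/
theorem prime_pow_dvd {r d N : ℕ} (hr : r.Prime) (hd : r ^ d ∣ N) (h0 : d ≠ 0) (l : List ℕ)
    (hl : ∀ s : ℕ, s.Prime → s ∣ N → s ∈ l) : r ∈ l :=
  hl r hr ((dvd_pow_self r h0).trans hd)

/-- the product of the orders of two different simple components divides the order -/
theorem om_mul_dvd [Finite G] {T₁ T₂ : Subgroup G} (h₁ : T₁ ∈ Om G) (h₂ : T₂ ∈ Om G) (hne : T₁ ≠ T₂) :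
    Nat.card ↥T₁ * Nat.card ↥T₂ ∣ Nat.card G := by
  have hc : ∀ (x : ↥T₁) (y : ↥T₂), Commute (T₁.subtype x) (T₂.subtype y) := fun x y =>
    om_commute h₁ h₂ hne x.2 y.2
  rw [← Nat.card_prod]
  refine Subgroup.card_dvd_of_injective (MonoidHom.noncommCoprod T₁.subtype T₂.subtype hc) ?_
  rw [injective_iff_map_eq_one]
  rintro ⟨x, y⟩ hxy
  rw [MonoidHom.noncommCoprod_apply] at hxy
  have hxy' : (x : G) = ((y : G))⁻¹ := eq_inv_of_mul_eq_one_left hxy
  have hx : (x : G) = 1 := by
    refine om_center h₁ x.2 fun t ht => ?_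
    rw [hxy']
    exact ((om_commute h₁ h₂ hne ht y.2).inv_right).symm
  have hy : (y : G) = 1 := by
    rw [hx] at hxy'
    exact inv_eq_one.1 hxy'.symm
  exact Prod.ext (Subtype.ext hx) (Subtype.ext hy)

/-- the product of the orders of three different simple components divides the order -/
theorem om_mul_three [Finite G] {T₁ T₂ T₃ : Subgroup G} (h₁ : T₁ ∈ Om G) (h₂ : T₂ ∈ Om G) (h₃ : T₃ ∈ Om G)
    (h12 : T₁ ≠ T₂) (h13 : T₁ ≠ T₃) (h23 : T₂ ≠ T₃) :
    Nat.card ↥T₁ * Nat.card ↥T₂ * Nat.card ↥T₃ ∣ Nat.card G := by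
  have hc : ∀ (x : ↥T₁) (y : ↥T₂), Commute (T₁.subtype x) (T₂.subtype y) := fun x y =>
    om_commute h₁ h₂ h12 x.2 y.2
  have hc3 : ∀ (x : ↥T₁ × ↥T₂) (y : ↥T₃), Commute (MonoidHom.noncommCoprod T₁.subtype T₂.subtype hc x)
      (T₃.subtype y) := by
    intro x y
    rw [MonoidHom.noncommCoprod_apply]
    exact (om_commute h₁ h₃ h13 x.1.2 y.2).mul_left (om_commute h₂ h₃ h23 x.2.2 y.2)
  rw [← Nat.card_prod, ← Nat.card_prod]
  refine Subgroup.card_dvd_of_injective
    (MonoidHom.noncommCoprod (MonoidHom.noncommCoprod T₁.subtype T₂.subtype hc) T₃.subtype hc3) ?_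
  rw [injective_iff_map_eq_one]
  rintro ⟨⟨x, y⟩, z⟩ hxy
  rw [MonoidHom.noncommCoprod_apply, MonoidHom.noncommCoprod_apply] at hxy
  have hxy' : (z : G) = ((x : G) * (y : G))⁻¹ := eq_inv_of_mul_eq_one_right hxy
  have hz : (z : G) = 1 := by
    refine om_center h₃ z.2 fun t ht => ?_
    rw [hxy']
    exact ((om_commute h₁ h₃ h13 x.2 ht).mul_left (om_commute h₂ h₃ h23 y.2 ht)).inv_left
  have hxy2 : (x : G) = ((y : G))⁻¹ := by
    have h4 : (x : G) * (y : G) = 1 := by
      have h5 : ((x : G) * (y : G))⁻¹ = 1 := by rw [← hxy', hz]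
      exact inv_eq_one.1 h5
    exact eq_inv_of_mul_eq_one_left h4
  have hx : (x : G) = 1 := by
    refine om_center h₁ x.2 fun t ht => ?_
    rw [hxy2]
    exact ((om_commute h₁ h₂ h12 ht y.2).inv_right).symm
  have hy : (y : G) = 1 := by
    rw [hx] at hxy2
    exact inv_eq_one.1 hxy2.symm
  exact Prod.ext (Prod.ext (Subtype.ext hx) (Subtype.ext hy)) (Subtype.ext hz)

/-- the alternating group of degree six -/
theorem alt_six (T : OrderTable.{u}) (hS : ∀ (X : Type u) [Group X] [Finite X] [IsSimpleGroup X], IsKnownSimple' X)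
    [Finite G] [IsSimpleGroup G] (hG : IsCharacteristicTwoType G) (hc : Nat.card G = 360) (M : Subgroup G)
    (hM : pCore 2 ↥M = ⊥) (hidx : ¬ 2 ∣ M.index) : M = ⊤ := by
  by_contra hne
  have h1 : Nat.card ↥M * M.index = 360 := by rw [Subgroup.card_mul_index, hc]
  have h2 := Involutions.IndexFive.card_dvd_factorial_index M hne
  rw [hc] at h2
  have h3 : M.index ∣ 45 := by
    have h4 : M.index ∣ 8 * 45 := Dvd.intro_left _ h1
    exact Nat.Coprime.dvd_of_dvd_mul_left
      (Nat.Coprime.pow_right 3 ((Nat.coprime_comm.1 (Nat.coprime_two_left.2 (by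
        rw [← Nat.not_even_iff_odd, even_iff_two_dvd]; exact hidx))))) h4
  have h4 : 6 ≤ M.index := by
    by_contra h
    have h5 : M.index ! ∣ 5 ! := Nat.factorial_dvd_factorial (by omega)
    exact absurd (h2.trans h5) (by decide)
  have h5 : M.index ∈ Nat.divisors 45 := Nat.mem_divisors.2 ⟨h3, by norm_num⟩
  have h6 : M.index = 9 ∨ M.index = 15 ∨ M.index = 45 := by
    have : ∀ n ∈ Nat.divisors 45, 6 ≤ n → n = 9 ∨ n = 15 ∨ n = 45 := by decide
    exact this _ h5 h4
  have h7 : Nat.card ↥M = 40 ∨ Nat.card ↥M = 24 ∨ Nat.card ↥M = 8 := by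
    rcases h6 with h | h | h <;> rw [h] at h1 <;> omega
  have hT : TrivRad ↥M := by
    refine trivRad hG hM hidx (a := 3) (by rcases h7 with h | h | h <;> rw [h] <;> norm_num) ?_
    intro r hr hr2 d hd
    rcases Nat.eq_zero_or_pos d with rfl | hd0
    · rw [glN_zero]; norm_num
    have hd' : r ^ d ∣ 120 := by
      refine hd.trans ?_
      rcases h7 with h | h | h <;> rw [h] <;> norm_num
    have hr' : r = 3 ∨ r = 5 := by
      have h8 : r ∣ 120 := (dvd_pow_self r hd0.ne').trans hd'
      have h9 : r ∈ Nat.primeFactors 120 := Nat.mem_primeFactors.2 ⟨hr, h8, by norm_num⟩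
      have h10 : ∀ s ∈ Nat.primeFactors 120, s ≠ 2 → s = 3 ∨ s = 5 := by decide +kernel
      exact h10 r h9 hr2
    have hd1 : d = 1 := by
      by_contra hd2
      have h8 : r ^ 2 ∣ 120 := (pow_dvd_pow r (by omega)).trans hd'
      rcases hr' with rfl | rfl
      · revert h8; norm_num
      · revert h8; norm_num
    subst hd1
    rcases hr' with rfl | rfl <;> decide
  have hnt : Nontrivial ↥M := by
    rw [← Finite.one_lt_card_iff_nontrivial]
    rcases h7 with h | h | h <;> rw [h] <;> norm_num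
  obtain ⟨K, hK, -⟩ := exists_om hT ⊤ top_ne_bot
  have hKs := hK.2
  have hKd : Nat.card ↥K ∣ 120 := by
    refine (Subgroup.card_subgroup_dvd_card K).trans ?_
    rcases h7 with h | h | h <;> rw [h] <;> norm_num
  have hna : ¬ ∀ a b : ↥K, a * b = b * a := fun h => om_not_comm hK ⟨⟨h⟩⟩
  have hd40 : Nat.card ↥K ∣ 40 ∨ Nat.card ↥K ∣ 24 := by
    have h8 := Subgroup.card_subgroup_dvd_card K
    rcases h7 with h | h | h
    · left; rwa [h] at h8
    · right; rwa [h] at h8
    · right; rw [h] at h8; exact h8.trans (by norm_num)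
  rcases hd40 with h | h
  · obtain ⟨g, hg, -⟩ := exists_real T (hS ↥K) hna (l := [(2, 3), (5, 1)]) (by decide +kernel) h
    rw [show cands [(2, 3), (5, 1)] 40 = [] from by decide +kernel] at hg
    simp at hg
  · obtain ⟨g, hg, -⟩ := exists_real T (hS ↥K) hna (l := [(2, 3), (3, 1)]) (by decide +kernel) h
    rw [show cands [(2, 3), (3, 1)] 24 = [] from by decide +kernel] at hg
    simp at hg

theorem card_aut_psl {S : Type u} [Group S] {n q p f : ℕ} [Fact p.Prime] (hf : 1 ≤ f) (hq : q = p ^ f) (hn : 2 ≤ n)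
    (h2 : n = 2 → 4 ≤ q) (h : Real (.psl n q) S) :
    (q - 1) * Nat.card (MulAut S) = (if n = 2 then 1 else 2) * f * ∏ i : Fin n, (q ^ n - q ^ (i : ℕ)) := by
  obtain ⟨F, _, _, hF, ⟨e⟩⟩ := h
  have hc : Nat.card (MulAut S) = Nat.card (MulAut (Matrix.ProjectiveSpecialLinearGroup (Fin n) F)) :=
    Nat.card_congr (MulAut.congr e).toEquiv
  rw [hc, S0813.result p f hf (hF.trans hq) n hn (fun h => hq ▸ h2 h), S0265.result n,
    ← S0242.result hF n (by omega)]
  ring

theorem real_psl_of_alt_five {S : Type u} [Group S] (h : Real (.alt 5) S) : Real (.psl 2 4) S := by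
  obtain ⟨e⟩ := h
  have hp : Fact (Nat.Prime 2) := ⟨Nat.prime_two⟩
  let _ : Fintype (GaloisField 2 2) := Fintype.ofFinite _
  have hc : Fintype.card (GaloisField 2 2) = 4 := by
    rw [← Nat.card_eq_fintype_card, GaloisField.card 2 2 (by norm_num)]; norm_num
  obtain ⟨e'⟩ := S0252.result hc
  exact ⟨GaloisField 2 2, inferInstance, inferInstance, hc, ⟨e.trans e'.symm⟩⟩

theorem real_psl_of_alt_six {S : Type u} [Group S] (h : Real (.alt 6) S) : Real (.psl 2 9) S := by
  obtain ⟨e⟩ := h
  have hp : Fact (Nat.Prime 3) := ⟨Nat.prime_three⟩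
  let _ : Fintype (GaloisField 3 2) := Fintype.ofFinite _
  have hc : Fintype.card (GaloisField 3 2) = 9 := by
    rw [← Nat.card_eq_fintype_card, GaloisField.card 3 2 (by norm_num)]; norm_num
  obtain ⟨e'⟩ := S0254.result hc
  exact ⟨GaloisField 3 2, inferInstance, inferInstance, hc, ⟨e.trans e'.symm⟩⟩

theorem aut_two_four {S : Type u} [Group S] (h : Real (.psl 2 4) S) : Nat.card (MulAut S) = 120 := by
  have hp : Fact (Nat.Prime 2) := ⟨Nat.prime_two⟩
  have h1 := card_aut_psl (p := 2) (f := 2) (by norm_num) (by norm_num) le_rfl (fun _ => by norm_num) h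
  norm_num [Fin.prod_univ_succ] at h1
  omega

theorem aut_two_five {S : Type u} [Group S] (h : Real (.psl 2 5) S) : Nat.card (MulAut S) = 120 := by
  have hp : Fact (Nat.Prime 5) := ⟨Nat.prime_five⟩
  have h1 := card_aut_psl (p := 5) (f := 1) (by norm_num) (by norm_num) le_rfl (fun _ => by norm_num) h
  norm_num [Fin.prod_univ_succ] at h1
  omega

theorem aut_two_nine {S : Type u} [Group S] (h : Real (.psl 2 9) S) : Nat.card (MulAut S) = 1440 := by
  have hp : Fact (Nat.Prime 3) := ⟨Nat.prime_three⟩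
  have h1 := card_aut_psl (p := 3) (f := 2) (by norm_num) (by norm_num) le_rfl (fun _ => by norm_num) h
  norm_num [Fin.prod_univ_succ] at h1
  omega

theorem aut_two_seven {S : Type u} [Group S] (h : Real (.psl 2 7) S) : Nat.card (MulAut S) = 336 := by
  have hp : Fact (Nat.Prime 7) := ⟨Nat.prime_seven⟩
  have h1 := card_aut_psl (p := 7) (f := 1) (by norm_num) (by norm_num) le_rfl (fun _ => by norm_num) h
  norm_num [Fin.prod_univ_succ] at h1
  omega

theorem aut_three_two {S : Type u} [Group S] (h : Real (.psl 3 2) S) : Nat.card (MulAut S) = 336 := by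
  have hp : Fact (Nat.Prime 2) := ⟨Nat.prime_two⟩
  have h1 := card_aut_psl (p := 2) (f := 1) (by norm_num) (by norm_num) (by norm_num) (fun h => by omega) h
  norm_num [Fin.prod_univ_succ] at h1
  omega

theorem aut_two_twentyfive {S : Type u} [Group S] (h : Real (.psl 2 25) S) : Nat.card (MulAut S) = 31200 := by
  have hp : Fact (Nat.Prime 5) := ⟨Nat.prime_five⟩
  have h1 := card_aut_psl (p := 5) (f := 2) (by norm_num) (by norm_num) le_rfl (fun _ => by norm_num) h
  norm_num [Fin.prod_univ_succ] at h1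
  omega

theorem aut_three_three {S : Type u} [Group S] (h : Real (.psl 3 3) S) : Nat.card (MulAut S) = 11232 := by
  have hp : Fact (Nat.Prime 3) := ⟨Nat.prime_three⟩
  have h1 := card_aut_psl (p := 3) (f := 1) (by norm_num) (by norm_num) (by norm_num) (fun h => by omega) h
  norm_num [Fin.prod_univ_succ] at h1
  omega

theorem aut_u_three_four {S : Type u} [Group S] (h : Real (.psu 3 4) S) (hc : Nat.card S = 62400) :
    Nat.card (MulAut S) = 249600 := by
  obtain ⟨F, _, _, hF, ⟨e⟩⟩ := h
  have hp : Fact (Nat.Prime 2) := ⟨Nat.prime_two⟩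
  have h0 : Nat.card (MulAut S) = Nat.card (MulAut (PSU 3 F 4)) := Nat.card_congr (MulAut.congr e).toEquiv
  rw [h0, S0815.result 2 2 (by norm_num) (q := 4) (by norm_num) hF 3 le_rfl (by norm_num),
    ← Nat.card_congr e.toEquiv, hc]
  norm_num

/-- `U₃(3)` -/
theorem u_three_three (T : OrderTable.{u})
    (hS : ∀ (X : Type u) [Group X] [Finite X] [IsSimpleGroup X], IsKnownSimple' X)
    [Finite G] [IsSimpleGroup G] (hG : IsCharacteristicTwoType G) (hc : Nat.card G = 6048) (M : Subgroup G)
    (hM : pCore 2 ↥M = ⊥) (hidx : ¬ 2 ∣ M.index) : M = ⊤ := by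
  by_contra hne
  have h1 : Nat.card ↥M * M.index = 6048 := by rw [Subgroup.card_mul_index, hc]
  have h2 := Involutions.IndexFive.card_dvd_factorial_index M hne
  rw [hc] at h2
  have h3 : M.index ∣ 189 := by
    have h4 : M.index ∣ 32 * 189 := Dvd.intro_left _ h1
    exact Nat.Coprime.dvd_of_dvd_mul_left
      (Nat.Coprime.pow_right 5 ((Nat.coprime_comm.1 (Nat.coprime_two_left.2 (by
        rw [← Nat.not_even_iff_odd, even_iff_two_dvd]; exact hidx))))) h4
  have h4 : 9 ≤ M.index := by
    by_contra h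
    have h5 : M.index ! ∣ 8 ! := Nat.factorial_dvd_factorial (by omega)
    exact absurd (h2.trans h5) (by decide)
  have h5 : M.index ∈ Nat.divisors 189 := Nat.mem_divisors.2 ⟨h3, by norm_num⟩
  have h6 : M.index = 9 ∨ M.index = 21 ∨ M.index = 27 ∨ M.index = 63 ∨ M.index = 189 := by
    have : ∀ n ∈ Nat.divisors 189, 9 ≤ n → n = 9 ∨ n = 21 ∨ n = 27 ∨ n = 63 ∨ n = 189 := by decide +kernel
    exact this _ h5 h4
  have h7 : Nat.card ↥M = 672 ∨ Nat.card ↥M = 288 ∨ Nat.card ↥M = 224 ∨ Nat.card ↥M = 96 ∨ Nat.card ↥M = 32 := by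
    rcases h6 with h | h | h | h | h <;> rw [h] at h1 <;> omega
  have h2016 : Nat.card ↥M ∣ 2016 := by rcases h7 with h | h | h | h | h <;> rw [h] <;> norm_num
  have h32 : 2 ^ 5 ∣ Nat.card ↥M := by rcases h7 with h | h | h | h | h <;> rw [h] <;> norm_num
  have hT : TrivRad ↥M := by
    refine trivRad hG hM hidx h32 ?_
    intro r hr hr2 d hd
    rcases Nat.eq_zero_or_pos d with rfl | hd0
    · rw [glN_zero]; norm_num
    have hd' : r ^ d ∣ 2016 := hd.trans h2016
    have hr' : r = 3 ∨ r = 7 := by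
      have h8 : r ∣ 2016 := (dvd_pow_self r hd0.ne').trans hd'
      have h9 : r ∈ Nat.primeFactors 2016 := Nat.mem_primeFactors.2 ⟨hr, h8, by norm_num⟩
      have h10 : ∀ s ∈ Nat.primeFactors 2016, s ≠ 2 → s = 3 ∨ s = 7 := by decide +kernel
      exact h10 r h9 hr2
    have hd2 : d ≤ 2 := by
      by_contra hd2
      have h8 : r ^ 3 ∣ 2016 := (pow_dvd_pow r (by omega)).trans hd'
      rcases hr' with rfl | rfl
      · revert h8; norm_num
      · revert h8; norm_num
    rcases hr' with rfl | rfl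
    · interval_cases d <;> decide
    · have hd1 : d = 1 := by
        by_contra hd3
        have h8 : 7 ^ 2 ∣ 2016 := (pow_dvd_pow 7 (by omega)).trans hd'
        revert h8; norm_num
      subst hd1
      decide
  have hnt : Nontrivial ↥M := by
    rw [← Finite.one_lt_card_iff_nontrivial]
    rcases h7 with h | h | h | h | h <;> rw [h] <;> norm_num
  have key : ∀ K ∈ Om ↥M, Nat.card ↥K = 168 ∧ Nat.card (MulAut ↥K) = 336 := by
    intro K hK
    have hKs := hK.2
    have hna : ¬ ∀ a b : ↥K, a * b = b * a := fun h => om_not_comm hK ⟨⟨h⟩⟩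
    obtain ⟨g, hg, hr, ho⟩ := exists_good T (hS ↥K) hna (l := [(2, 5), (3, 2), (7, 1)]) (N := 2016)
      (by decide +kernel) ((Subgroup.card_subgroup_dvd_card K).trans h2016)
    rw [show cands [(2, 5), (3, 2), (7, 1)] 2016 = [.psl 3 2, .psl 2 8, .psl 2 7] from by decide +kernel] at hg
    simp only [List.mem_cons, List.not_mem_nil, or_false] at hg
    rcases hg with rfl | rfl | rfl
    · exact ⟨ho.trans (by decide +kernel), aut_three_two hr⟩
    · exfalso
      have h8 : Nat.card ↥K = 504 := ho.trans (by decide +kernel)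
      have h9 := Subgroup.card_subgroup_dvd_card K
      rw [h8] at h9
      rcases h7 with h | h | h | h | h <;> rw [h] at h9 <;> revert h9 <;> norm_num
    · exact ⟨ho.trans (by decide +kernel), aut_two_seven hr⟩
  obtain ⟨K, hKn, hKs, hKna, hKc⟩ := almost_simple_of_subsingleton hT (fun T₁ h₁ T₂ h₂ => by
    by_contra hne
    have h8 := om_mul_dvd h₁ h₂ hne
    rw [(key _ h₁).1, (key _ h₂).1] at h8
    exact absurd (h8.trans h2016) (by norm_num))
  have hK : K ∈ Om ↥M := om_of_normal hKn le_rfl le_normalizer hKs hKna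
  have h8 := two_pow_dvd_aut (N := K) (by rw [hKc, Subgroup.card_bot]; exact odd_one) h32
  rw [(key K hK).2] at h8
  revert h8
  norm_num

/-- two components interchanged: the normalizer embeds in the product of the automorphism groups -/
theorem card_dvd_two [Finite G] (hT : TrivRad G) {T₁ T₂ : Subgroup G} (h₁ : T₁ ∈ Om G) (h₂ : T₂ ∈ Om G)
    (hne : T₁ ≠ T₂) (hall : ∀ T ∈ Om G, T = T₁ ∨ T = T₂) :
    Nat.card G ∣ 2 * (Nat.card (MulAut ↥T₁) * Nat.card (MulAut ↥T₂)) := by
  set H : Subgroup G := normalizer (T₁ : Set G) with hH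
  have hconj : ∀ (g : G) (T : Subgroup G), T.map (MulAut.conj g).toMonoidHom = T ↔ g ∈ normalizer (T : Set G) := by
    intro g T
    constructor
    · intro h
      refine Subgroup.mem_normalizer_fintype ?_
      intro n hn
      have : (MulAut.conj g).toMonoidHom n ∈ T.map (MulAut.conj g).toMonoidHom := ⟨n, hn, rfl⟩
      rw [h] at this
      exact this
    · intro h
      ext x
      constructor
      · rintro ⟨y, hy, rfl⟩
        exact (mem_normalizer_iff.1 h y).1 hy
      · intro hx
        refine ⟨g⁻¹ * x * g, ?_, ?_⟩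
        · refine (mem_normalizer_iff.1 h _).2 ?_
          have e : g * (g⁻¹ * x * g) * g⁻¹ = x := by group
          rwa [e]
        · change g * (g⁻¹ * x * g) * g⁻¹ = x
          group
  have hmove : ∀ g : G, g ∉ H → T₁.map (MulAut.conj g).toMonoidHom = T₂ := by
    intro g hg
    rcases hall _ (om_conj h₁ g) with h | h
    · exact absurd ((hconj g T₁).1 h) hg
    · exact h
  have hH2 : H ≤ normalizer (T₂ : Set G) := by
    intro g hg
    rw [← hconj]
    rcases hall _ (om_conj h₂ g) with h | h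
    · exfalso
      have h3 := (hconj g T₁).2 hg
      rw [← h3] at h
      exact hne (Subgroup.map_injective (MulAut.conj g).injective h).symm
    · exact h
  have hidx : H.index ∣ 2 := by
    by_cases htop : H = ⊤
    · rw [htop, index_top]; exact one_dvd 2
    · obtain ⟨a, ha⟩ : ∃ a, a ∉ H := by
        by_contra h
        push Not at h
        exact htop (eq_top_iff.2 fun x _ => h x)
      have : H.index = 2 := by
        rw [Subgroup.index_eq_two_iff]
        refine ⟨a, fun b => ?_⟩
        by_cases hb : b ∈ H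
        · right
          refine ⟨hb, fun h => ha ?_⟩
          have := H.mul_mem (H.inv_mem hb) h
          rwa [inv_mul_cancel_left] at this
        · left
          refine ⟨?_, hb⟩
          have hb' : b⁻¹ ∉ H := fun h => hb (by simpa using H.inv_mem h)
          have e1 := hmove a ha
          have e2 := hmove b⁻¹ hb'
          rw [hH, ← hconj, map_mul]
          have e3 : T₁.map ((MulAut.conj b * MulAut.conj a).toMonoidHom) =
              (T₁.map (MulAut.conj a).toMonoidHom).map (MulAut.conj b).toMonoidHom := by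
            rw [Subgroup.map_map]; rfl
          rw [e3, e1, ← e2, Subgroup.map_map]
          ext x
          simp [mul_assoc]
      rw [this]
  -- the joint kernel
  have hker : centralizer (T₁ : Set G) ⊓ centralizer (T₂ : Set G) = ⊥ := by
    by_contra h
    have hn : (centralizer (T₁ : Set G) ⊓ centralizer (T₂ : Set G)).Normal := by
      refine ⟨fun x hx g => ?_⟩
      have key : ∀ T ∈ Om G, x ∈ centralizer (T : Set G) := by
        intro T hT'
        rcases hall T hT' with rfl | rfl
        · exact hx.1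
        · exact hx.2
      have key2 : ∀ T ∈ Om G, g * x * g⁻¹ ∈ centralizer (T : Set G) := by
        intro T hT'
        have h3 := key _ (om_conj hT' g⁻¹)
        rw [mem_centralizer_iff] at h3 ⊢
        intro t ht
        have h4 := h3 (g⁻¹ * t * g) ⟨t, ht, by simp⟩
        calc t * (g * x * g⁻¹) = g * ((g⁻¹ * t * g) * x) * g⁻¹ := by group
          _ = g * (x * (g⁻¹ * t * g)) * g⁻¹ := by rw [h4]
          _ = g * x * g⁻¹ * t := by group
      exact ⟨key2 T₁ h₁, key2 T₂ h₂⟩
    obtain ⟨T, hT', hle⟩ := exists_om hT (centralizer (T₁ : Set G) ⊓ centralizer (T₂ : Set G)) h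
    have hTT : T ≤ centralizer (T : Set G) := by
      rcases hall T hT' with h3 | h3
      · conv_rhs => rw [h3]
        exact hle.trans inf_le_left
      · conv_rhs => rw [h3]
        exact hle.trans inf_le_right
    exact om_not_comm hT' (isMulCommutative_iff.2 fun a b => Subtype.ext ((mem_centralizer_iff.1 (hTT b.2) a a.2)))
  -- the embedding
  let f₁ : ↥H →* MulAut ↥T₁ := T₁.normalizerMonoidHom
  let f₂ : ↥H →* MulAut ↥T₂ := T₂.normalizerMonoidHom.comp (Subgroup.inclusion hH2)
  have hinj : Function.Injective (f₁.prod f₂) := by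
    rw [injective_iff_map_eq_one]
    intro x hx
    have hx1 : f₁ x = 1 := congrArg Prod.fst hx
    have hx2 : f₂ x = 1 := congrArg Prod.snd hx
    have h3 : (x : G) ∈ centralizer (T₁ : Set G) ⊓ centralizer (T₂ : Set G) := by
      constructor
      · show (x : G) ∈ centralizer (T₁ : Set G)
        rw [mem_centralizer_iff]
        intro t ht
        have h4 : ((f₁ x) ⟨t, ht⟩ : ↥T₁) = ⟨t, ht⟩ := by rw [hx1]; rfl
        have h5 : (x : G) * t * (x : G)⁻¹ = t := congrArg Subtype.val h4
        rw [mul_inv_eq_iff_eq_mul] at h5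
        exact h5.symm
      · show (x : G) ∈ centralizer (T₂ : Set G)
        rw [mem_centralizer_iff]
        intro t ht
        have h4 : ((f₂ x) ⟨t, ht⟩ : ↥T₂) = ⟨t, ht⟩ := by rw [hx2]; rfl
        have h5 : (x : G) * t * (x : G)⁻¹ = t := congrArg Subtype.val h4
        rw [mul_inv_eq_iff_eq_mul] at h5
        exact h5.symm
    rw [hker, mem_bot] at h3
    exact Subtype.ext h3
  have h3 : Nat.card ↥H ∣ Nat.card (MulAut ↥T₁) * Nat.card (MulAut ↥T₂) := by
    rw [← Nat.card_prod]
    exact Subgroup.card_dvd_of_injective _ hinj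
  rw [← Subgroup.card_mul_index H, mul_comm]
  exact mul_dvd_mul hidx h3

/-- the Tits group -/
theorem tits (T : OrderTable.{u})
    (hS : ∀ (X : Type u) [Group X] [Finite X] [IsSimpleGroup X], IsKnownSimple' X)
    [Finite G] [IsSimpleGroup G] (hG : IsCharacteristicTwoType G) (hc : Nat.card G = 17971200) (M : Subgroup G)
    (hM : pCore 2 ↥M = ⊥) (hidx : ¬ 2 ∣ M.index) : M = ⊤ := by
  by_contra hne
  have h1 : Nat.card ↥M * M.index = 17971200 := by rw [Subgroup.card_mul_index, hc]
  have hMd : Nat.card ↥M ∣ 17971200 := Dvd.intro _ h1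
  have h11 : 2 ^ 11 ∣ Nat.card ↥M := by
    have h4 : 2 ^ 11 ∣ Nat.card ↥M * M.index := by rw [h1]; norm_num
    exact Nat.Coprime.dvd_of_dvd_mul_right
      (Nat.Coprime.pow_left 11 (Nat.coprime_two_left.2 (by
        rw [← Nat.not_even_iff_odd, even_iff_two_dvd]; exact hidx))) h4
  have hT : TrivRad ↥M := by
    refine trivRad hG hM hidx h11 ?_
    intro r hr hr2 d hd
    rcases Nat.eq_zero_or_pos d with rfl | hd0
    · rw [glN_zero]; norm_num
    have hd' : r ^ d ∣ 17971200 := hd.trans hMd
    have hr' : r = 3 ∨ r = 5 ∨ r = 13 := by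
      have h8 : r ∣ 2 ^ 11 * 3 ^ 3 * 5 ^ 2 * 13 := (dvd_pow_self r hd0.ne').trans (hd'.trans (by norm_num))
      rw [hr.dvd_mul, hr.dvd_mul, hr.dvd_mul] at h8
      rcases h8 with ((h8 | h8) | h8) | h8
      · exact absurd ((Nat.prime_dvd_prime_iff_eq hr Nat.prime_two).1 (hr.dvd_of_dvd_pow h8)) hr2
      · exact Or.inl ((Nat.prime_dvd_prime_iff_eq hr Nat.prime_three).1 (hr.dvd_of_dvd_pow h8))
      · exact Or.inr (Or.inl ((Nat.prime_dvd_prime_iff_eq hr Nat.prime_five).1 (hr.dvd_of_dvd_pow h8)))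
      · exact Or.inr (Or.inr ((Nat.prime_dvd_prime_iff_eq hr (by norm_num)).1 h8))
    have hb : ∀ k : ℕ, k ≤ d → r ^ k ∣ 17971200 := fun k hk => (pow_dvd_pow r hk).trans hd'
    rcases hr' with rfl | rfl | rfl
    · have hd3 : d ≤ 3 := by
        by_contra h
        have := hb 4 (by omega)
        revert this; norm_num
      interval_cases d <;> decide +kernel
    · have hd3 : d ≤ 2 := by
        by_contra h
        have := hb 3 (by omega)
        revert this; norm_num
      interval_cases d <;> decide +kernel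
    · have hd3 : d ≤ 1 := by
        by_contra h
        have := hb 2 (by omega)
        revert this; norm_num
      interval_cases d; decide +kernel
  have hnt : Nontrivial ↥M := by
    rw [← Finite.one_lt_card_iff_nontrivial]
    have := Nat.le_of_dvd Nat.card_pos h11
    omega
  have key : ∀ K ∈ Om ↥M, (Nat.card ↥K = 60 ∧ Nat.card (MulAut ↥K) = 120) ∨
      (¬ 2 ^ 11 ∣ Nat.card (MulAut ↥K) ∧ 2 ∣ Nat.card ↥K ∧
        (13 ∣ Nat.card ↥K ∨ Nat.card ↥K = 360)) := by
    intro K hK
    have hKs := hK.2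
    have hna : ¬ ∀ a b : ↥K, a * b = b * a := fun h => om_not_comm hK ⟨⟨h⟩⟩
    obtain ⟨g, hg, hr, ho⟩ := exists_good T (hS ↥K) hna (l := [(2, 11), (3, 3), (5, 2), (13, 1)]) (N := 17971200)
      (by decide +kernel) ((Subgroup.card_subgroup_dvd_card K).trans hMd)
    rw [show cands [(2, 11), (3, 3), (5, 2), (13, 1)] 17971200 = [.alt 5, .alt 6, .psl 2 4, .psl 3 3, .psl 2 9,
      .psl 2 5, .psl 2 25, .psu 3 4, .tits] from by decide +kernel] at hg
    simp only [List.mem_cons, List.not_mem_nil, or_false] at hg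
    rcases hg with rfl | rfl | rfl | rfl | rfl | rfl | rfl | rfl | rfl
    · exact Or.inl ⟨ho.trans (by decide +kernel), aut_two_four (real_psl_of_alt_five hr)⟩
    · right
      have h8 : Nat.card ↥K = 360 := ho.trans (by decide +kernel)
      refine ⟨?_, by rw [h8]; norm_num, Or.inr h8⟩
      rw [aut_two_nine (real_psl_of_alt_six hr)]; norm_num
    · exact Or.inl ⟨ho.trans (by decide +kernel), aut_two_four hr⟩
    · right
      have h8 : Nat.card ↥K = 5616 := ho.trans (by decide +kernel)
      refine ⟨?_, by rw [h8]; norm_num, Or.inl (by rw [h8]; norm_num)⟩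
      rw [aut_three_three hr]; norm_num
    · right
      have h8 : Nat.card ↥K = 360 := ho.trans (by decide +kernel)
      refine ⟨?_, by rw [h8]; norm_num, Or.inr h8⟩
      rw [aut_two_nine hr]; norm_num
    · exact Or.inl ⟨ho.trans (by decide +kernel), aut_two_five hr⟩
    · right
      have h8 : Nat.card ↥K = 7800 := ho.trans (by decide +kernel)
      refine ⟨?_, by rw [h8]; norm_num, Or.inl (by rw [h8]; norm_num)⟩
      rw [aut_two_twentyfive hr]; norm_num
    · right
      have h8 : Nat.card ↥K = 62400 := ho.trans (by decide +kernel)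
      refine ⟨?_, by rw [h8]; norm_num, Or.inl (by rw [h8]; norm_num)⟩
      rw [aut_u_three_four hr h8]; norm_num
    · exfalso
      have h8 : Nat.card ↥K = 17971200 := ho.trans (by decide +kernel)
      have h9 := Nat.le_of_dvd Nat.card_pos (Subgroup.card_subgroup_dvd_card K)
      rw [h8] at h9
      have h10 : Nat.card ↥M = Nat.card G := by
        have := Nat.le_of_dvd (by norm_num) hMd
        omega
      exact hne ((Subgroup.card_eq_iff_eq_top M).1 h10)
  have heven : ∀ K ∈ Om ↥M, Even (Nat.card ↥K) := by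
    intro K hK
    rw [even_iff_two_dvd]
    rcases key K hK with h | h
    · rw [h.1]; norm_num
    · exact h.2.1
  by_cases hsub : ∀ T₁ ∈ Om ↥M, ∀ T₂ ∈ Om ↥M, T₁ = T₂
  · obtain ⟨K, hKn, hKs, hKna, hKc⟩ := almost_simple_of_subsingleton hT hsub
    have hK : K ∈ Om ↥M := om_of_normal hKn le_rfl le_normalizer hKs hKna
    have h8 := two_pow_dvd_aut (N := K) (by rw [hKc, Subgroup.card_bot]; exact odd_one) h11
    rcases key K hK with h | h
    · rw [h.2] at h8
      revert h8
      norm_num
    · exact h.1 h8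
  · -- no component is normal
    have hnn : ∀ K ∈ Om ↥M, ¬ K.Normal := by
      intro K hK hKn
      apply hsub
      intro T₁ h₁ T₂ h₂
      rw [← om_unique hG hM hidx hK h₁ hKn (heven _ h₁), ← om_unique hG hM hidx hK h₂ hKn (heven _ h₂)]
    have hconj : ∀ K ∈ Om ↥M, ∃ K' ∈ Om ↥M, K' ≠ K ∧ Nat.card ↥K' = Nat.card ↥K := by
      intro K hK
      by_contra hcon
      push Not at hcon
      apply hnn K hK
      refine ⟨fun n hn g => ?_⟩
      by_contra h
      refine hcon _ (om_conj hK g) ?_ ?_
      · intro h3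
        apply h
        rw [← h3]
        exact ⟨n, hn, rfl⟩
      · exact (Nat.card_congr (K.equivMapOfInjective _ (MulAut.conj g).injective).toEquiv).symm
    have h60 : ∀ K ∈ Om ↥M, Nat.card ↥K = 60 ∧ Nat.card (MulAut ↥K) = 120 := by
      intro K hK
      rcases key K hK with h | ⟨-, -, h⟩
      · exact h
      · exfalso
        obtain ⟨K', hK', hne', hc'⟩ := hconj K hK
        have h8 := (om_mul_dvd hK hK' hne'.symm).trans hMd
        rw [hc'] at h8
        rcases h with h | h
        · have h9 := (mul_dvd_mul h h).trans h8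
          revert h9; norm_num
        · rw [h] at h8
          revert h8; norm_num
    obtain ⟨T₁, h₁, -⟩ := exists_om hT ⊤ top_ne_bot
    obtain ⟨T₂, h₂, hne12, -⟩ := hconj T₁ h₁
    have hall : ∀ K ∈ Om ↥M, K = T₁ ∨ K = T₂ := by
      intro K hK
      by_contra hcon
      push Not at hcon
      have h8 := (om_mul_three h₁ h₂ hK hne12.symm hcon.1.symm hcon.2.symm).trans hMd
      rw [(h60 _ h₁).1, (h60 _ h₂).1, (h60 _ hK).1] at h8
      revert h8; norm_num
    have h8 := h11.trans (card_dvd_two hT h₁ h₂ hne12.symm hall)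
    rw [(h60 _ h₁).2, (h60 _ h₂).2] at h8
    revert h8; norm_num

end Cfsg.Agent.H567.OddOver
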